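import Mathlib
import Cfsg.Agent.Lib.Orth.Pairs

/-! The reflections in vectors of a fixed norm class generate a subgroup of index two. -/

set_option autoImplicit false

namespace CfsgLib.Orth.ReflClass

open QuadraticMap Module CfsgLib.Orth

variable {F V : Type*} [Field F] [AddCommGroup V] [Module F V] {Q : QuadraticForm F V}

theorem Q_comb (u w : V) (a b : F) :
    Q (a • u + b • w) = a * a * Q u + b * b * Q w + a * b * polar Q u w := by
  rw [Q_add, Q_smul, Q_smul, polar_smul_left, polar_smul_right]; simp [mul_assoc]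

theorem Q_triple (u w : V) (a b : F) :
    Q ((a * polar Q u w + b * Q w) • u + (-(a * Q u)) • w) = Q u * Q w * Q (a • u + b • w) := by
  rw [Q_comb, Q_comb]; ring

/-- three reflections in a plane -/
theorem triple {u w : V} {a b : F} (hu : Q u ≠ 0) (hw : Q w ≠ 0) (h : Q (a • u + b • w) ≠ 0) :
    refl Q u * refl Q w * refl Q (a • u + b • w) =
      refl Q ((a * polar Q u w + b * Q w) • u + (-(a * Q u)) • w) := by
  refine OG.ext fun z => ?_
  simp only [OG.mul_apply, refl_apply, Q_triple, polar_sub_right, polar_smul_right,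
    polar_add_right, polar_add_left, polar_smul_left, polar_self', smul_eq_mul,
    polar_comm Q w u]
  have e := Q_comb (Q := Q) u w a b
  generalize Q (a • u + b • w) = D at *
  match_scalars
  · ring
  · field_simp
    rw [e]; ring
  · field_simp
    rw [e]; ring

/-- the subgroup generated by the reflections of norm class `c` -/
def R (Q : QuadraticForm F V) (c : F) : Subgroup (OG Q) :=
  Subgroup.closure {g | ∃ (v : V) (t : F), t ≠ 0 ∧ Q v = c * t ^ 2 ∧ g = refl Q v}

variable {c : F}

theorem refl_mem {v : V} (hc : c ≠ 0) (hv : Q v ≠ 0) (h : IsSquare (c * Q v)) :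
    refl Q v ∈ R Q c := by
  obtain ⟨r, hr⟩ := h
  refine Subgroup.subset_closure ⟨v, r / c, fun h0 => ?_, ?_, rfl⟩
  · rw [div_eq_zero_iff] at h0
    rcases h0 with h0 | h0
    · rw [h0, mul_zero] at hr; exact mul_ne_zero hc hv hr
    · exact hc h0
  · field_simp
    linear_combination hr

instance : (R Q c).Normal := ⟨fun n hn g => by
  induction hn using Subgroup.closure_induction with
  | mem x hx =>
    obtain ⟨v, t, ht, hv, rfl⟩ := hx
    exact Subgroup.subset_closure ⟨g.1 v, t, ht, by rw [OG.map_Q, hv], conj_refl g v⟩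
  | one => simp
  | mul x y _ _ hx hy =>
    have := mul_mem hx hy
    rwa [conj_mul] at this
  | inv x _ hx =>
    have := inv_mem hx
    rwa [conj_inv] at this⟩

variable [Finite F]

theorem pair_of_nondeg (h2 : (2 : F) ≠ 0) (hc : c ≠ 0) {u w : V} (hu : Q u ≠ 0) (hw : Q w ≠ 0)
    (hs : IsSquare (Q u * Q w)) (h : polar Q u w ^ 2 ≠ 4 * Q u * Q w) :
    refl Q u * refl Q w ∈ R Q c := by
  have h4 : (4 : F) ≠ 0 := by
    have := mul_ne_zero h2 h2
    norm_num at this ⊢
    exact this
  obtain ⟨s, t, hst⟩ := exists_sq_add_sq_eq hu (b := Q u * (4 * Q u * Q w - polar Q u w ^ 2))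
    (mul_ne_zero hu (sub_ne_zero.2 h.symm)) c
  have ha : Q ((s - t * polar Q u w) • u + (2 * t * Q u) • w) = c := by
    rw [Q_comb, ← hst]; ring
  have h1 := triple hu hw (ha ▸ hc : Q ((s - t * polar Q u w) • u + (2 * t * Q u) • w) ≠ 0)
  rw [← eq_mul_inv_iff_mul_eq] at h1
  rw [h1]
  refine mul_mem (refl_mem hc ?_ ?_) (inv_mem (refl_mem hc (ha ▸ hc) ⟨c, by rw [ha]⟩))
  · rw [Q_triple, ha]; exact mul_ne_zero (mul_ne_zero hu hw) hc
  · obtain ⟨r, hr⟩ := hs
    exact ⟨c * r, by rw [Q_triple, ha, hr]; ring⟩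

variable [FiniteDimensional F V]

theorem exists_mid (h2 : (2 : F) ≠ 0) (hQ : (polarBilin Q).Nondegenerate)
    (he : Even (finrank F V)) (h43 : ¬ (finrank F V = 4 ∧ Nat.card F = 3)) {u z : V}
    (hu : Q u ≠ 0) (hz : Q z = 0) (hz0 : z ≠ 0) (huz : polar Q u z = 0) {D : F} (hD : D ≠ 0) :
    ∃ v, Q v = Q u ∧ polar Q u v = 0 ∧ polar Q z v ^ 2 ≠ D := by
  obtain ⟨y, hy1, hy2⟩ := exists_perp_polar_eq hQ (W := Submodule.span F {u}) (x := z) (fun h => by
    obtain ⟨a, rfl⟩ := Submodule.mem_span_singleton.1 h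
    rw [Q_smul] at hz
    have : a = 0 := by simpa [hu] using hz
    exact hz0 (by rw [this, zero_smul])) 1
  replace hy1 := hy1 u (Submodule.mem_span_singleton_self u)
  obtain ⟨y, hy1, hy2, hy3⟩ : ∃ y, polar Q u y = 0 ∧ polar Q z y = 1 ∧ Q y = 0 := by
    refine ⟨y - Q y • z, ?_, ?_, ?_⟩
    · rw [polar_sub_right, polar_smul_right, hy1, huz]; simp
    · rw [polar_sub_right, polar_smul_right, hy2, polar_self', hz]; simp
    · rw [Q_sub, Q_smul, hz, polar_smul_right, polar_comm, hy2]; simp
  let φ : V →ₗ[F] F × F × F := (polarBilin Q u).prod ((polarBilin Q z).prod (polarBilin Q y))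
  have hφ : ∀ a b d : F, φ ((a / (2 * Q u)) • u + d • z + b • y) = (a, b, d) := by
    intro a b d
    change (polar Q u _, polar Q z _, polar Q y _) = _
    simp only [polar_add_right, polar_smul_right, polar_self', huz, hy1, hy2, hz, hy3,
      polar_comm Q z u, polar_comm Q y u, polar_comm Q y z, smul_eq_mul]
    simp
    field_simp
  have hr : finrank F (LinearMap.range φ) = 3 := by
    rw [LinearMap.range_eq_top.2 fun x => ⟨_, hφ x.1 x.2.1 x.2.2⟩]; simp
  have hk := φ.finrank_range_add_finrank_ker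
  rcases Nat.lt_or_ge (finrank F (LinearMap.ker φ)) 2 with h | h
  · have h4 : finrank F V = 4 := by
      obtain ⟨k, hk'⟩ := he
      omega
    have := Fintype.ofFinite F
    have h3 : 3 < Fintype.card F := by
      have a1 := card_odd_of_two_ne_zero h2
      have a2 : 1 < Fintype.card F := Fintype.one_lt_card
      rw [Nat.card_eq_fintype_card] at h43
      omega
    obtain ⟨t, ht0, ht⟩ : ∃ t : F, t ≠ 0 ∧ t ^ 2 ≠ D := by
      classical
      by_cases hs : IsSquare D
      · obtain ⟨r, rfl⟩ := hs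
        obtain ⟨t, -, ht⟩ := Finset.exists_mem_notMem_of_card_lt_card (s := {0, r, -r})
          (t := Finset.univ) (lt_of_le_of_lt Finset.card_le_three h3)
        simp only [Finset.mem_insert, Finset.mem_singleton, not_or] at ht
        refine ⟨t, ht.1, fun e => ?_⟩
        rcases mul_self_eq_mul_self_iff.1 (by rw [← e]; ring : t * t = r * r) with e | e
        · exact ht.2.1 e
        · exact ht.2.2 e
      · exact ⟨1, one_ne_zero, fun e => hs ⟨1, by rw [← e]; ring⟩⟩
    refine ⟨(Q u / t) • z + t • y, ?_, ?_, ?_⟩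
    · rw [Q_comb, hz, hy3, hy2]; field_simp; ring
    · rw [polar_add_right, polar_smul_right, polar_smul_right, huz, hy1]; simp
    · rw [polar_add_right, polar_smul_right, polar_smul_right, hy2, polar_self', hz]
      simpa using ht
  · have hU : (polarBilin (Q.comp (LinearMap.ker φ).subtype)).Nondegenerate := by
      refine nondegenerate_of_polar fun x hx => Subtype.ext (eq_zero_of_polar hQ fun w => ?_)
      have h1 : w - (((φ w).1 / (2 * Q u)) • u + (φ w).2.2 • z + (φ w).2.1 • y) ∈
          LinearMap.ker φ := by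
        rw [LinearMap.mem_ker, map_sub, hφ, sub_self]
      have h3 : polar Q x.1 (w - _) = 0 := hx ⟨_, h1⟩
      have h4 : φ x.1 = 0 := x.2
      have a1 : polar Q u x.1 = 0 := congrArg (·.1) h4
      have a2 : polar Q z x.1 = 0 := congrArg (·.2.1) h4
      have a3 : polar Q y x.1 = 0 := congrArg (·.2.2) h4
      rw [polar_comm] at a1 a2 a3
      simpa [polar_sub_right, polar_add_right, polar_smul_right, a1, a2, a3] using h3
    obtain ⟨v, hv⟩ := exists_Q_eq hU h (Q u)
    have h4 : φ v.1 = 0 := v.2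
    have a2 : polar Q z v.1 = 0 := congrArg (·.2.1) h4
    exact ⟨v, hv, congrArg (·.1) h4, by rw [a2]; simpa using hD.symm⟩

theorem pair (h2 : (2 : F) ≠ 0) (hQ : (polarBilin Q).Nondegenerate)
    (he : Even (finrank F V)) (h43 : ¬ (finrank F V = 4 ∧ Nat.card F = 3)) (hc : c ≠ 0)
    {u w : V} (hu : Q u ≠ 0) (hw : Q w ≠ 0) (hs : IsSquare (Q u * Q w)) :
    refl Q u * refl Q w ∈ R Q c := by
  by_cases h : polar Q u w ^ 2 = 4 * Q u * Q w
  swap
  · exact pair_of_nondeg h2 hc hu hw hs h
  have h4 : (4 : F) ≠ 0 := by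
    have := mul_ne_zero h2 h2
    norm_num at this ⊢
    exact this
  by_cases hz0 : (-polar Q u w) • u + (2 * Q u) • w = 0
  · have hB : polar Q u w ≠ 0 := fun h0 => by
      rw [h0] at h
      exact mul_ne_zero (mul_ne_zero h4 hu) hw (by rw [← h]; ring)
    have e : (2 * Q u) • w = polar Q u w • u := by
      rw [← sub_eq_zero, ← hz0]; module
    rw [← refl_smul (mul_ne_zero h2 hu) w, e, refl_smul hB, refl_mul_self]
    exact one_mem _
  obtain ⟨v, hv1, hv2, hv3⟩ := exists_mid h2 hQ he h43 hu (z := (-polar Q u w) • u + (2 * Q u) • w)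
    (by rw [Q_comb]; linear_combination (-Q u) * h) hz0
    (by rw [polar_add_right, polar_smul_right, polar_smul_right, polar_self']; simp; ring)
    (D := (2 * Q u) ^ 2 * (4 * Q u * Q w))
    (mul_ne_zero (pow_ne_zero _ (mul_ne_zero h2 hu)) (mul_ne_zero (mul_ne_zero h4 hu) hw))
  have e : refl Q u * refl Q w = refl Q u * refl Q v * (refl Q v * refl Q w) := by
    rw [mul_assoc, ← mul_assoc (refl Q v), refl_mul_self, one_mul]
  rw [e]
  refine mul_mem (pair_of_nondeg h2 hc hu (hv1 ▸ hu) ⟨Q u, by rw [hv1]⟩ ?_)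
    (pair_of_nondeg h2 hc (hv1 ▸ hu) hw (hv1 ▸ hs) fun h5 => hv3 ?_)
  · rw [hv2, hv1]
    exact fun h5 => mul_ne_zero (mul_ne_zero h4 hu) hu (by rw [← h5]; ring)
  · rw [polar_add_left, polar_smul_left, polar_smul_left, hv2, polar_comm Q w v, ← hv1, ← h5]
    simp; ring

theorem index_R (h2 : (2 : F) ≠ 0) (hQ : (polarBilin Q).Nondegenerate) (hn : 2 ≤ finrank F V)
    (he : Even (finrank F V)) (h43 : ¬ (finrank F V = 4 ∧ Nat.card F = 3)) (hc : c ≠ 0) :
    (R Q c).index = 2 := by
  classical
  have h24 : Nat.card F ≠ 2 ∨ finrank F V ≠ 4 := .inl (card_ne_two_of_two_ne_zero h2)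
  obtain ⟨d, hd⟩ := exists_not_isSquare h2
  have hd0 : d ≠ 0 := fun h => hd (h ▸ ⟨0, by simp⟩)
  obtain ⟨a, ha⟩ := exists_Q_eq hQ hn (c * d)
  have ha0 : Q a ≠ 0 := ha ▸ mul_ne_zero hc hd0
  have hca : ¬ IsSquare (c * Q a) := fun ⟨r, hr⟩ => hd ⟨r / c, by
    rw [ha] at hr; field_simp; linear_combination hr⟩
  let χ : OG Q →* ℤˣ := if IsSquare c then spinor hQ h24 else spinor hQ h24 * dickson hQ h24
  have hχ : ∀ v, Q v ≠ 0 → (χ (refl Q v) = 1 ↔ IsSquare (c * Q v)) := by
    intro v hv
    rw [isSquare_mul_iff_of_finite hc hv, ← spinor_refl_eq_one_iff hQ h24 hv]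
    by_cases h : IsSquare c
    · simp [χ, h]
    · simp only [χ, h, if_false, MonoidHom.mul_apply, dickson_refl hQ h24 hv, false_iff]
      rcases Int.units_eq_one_or (spinor hQ h24 (refl Q v)) with e | e <;> rw [e] <;> decide
  have hna : refl Q a ∉ R Q c := fun h => by
    have : R Q c ≤ χ.ker := (Subgroup.closure_le _).2 (by
      rintro _ ⟨v, t, ht, hv, rfl⟩
      exact (hχ v (hv ▸ mul_ne_zero hc (pow_ne_zero _ ht))).2 ⟨c * t, by rw [hv]; ring⟩)
    exact hca ((hχ a ha0).1 (this h))
  refine Subgroup.index_eq_two_iff.2 ⟨refl Q a, fun b => ?_⟩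
  have key : b * refl Q a ∈ R Q c ∨ b ∈ R Q c := by
    obtain ⟨l, hl, rfl⟩ := exists_reflProd hQ h24 b
    induction l with
    | nil => exact .inr (one_mem _)
    | cons v l ih =>
      have hv := hl v List.mem_cons_self
      have ih := ih fun w hw => hl w (List.mem_cons_of_mem _ hw)
      rw [reflProd_cons]
      by_cases hs : IsSquare (c * Q v)
      · exact ih.imp (fun h => by rw [mul_assoc]; exact mul_mem (refl_mem hc hv hs) h)
          fun h => mul_mem (refl_mem hc hv hs) h
      · have h1 := pair h2 hQ he h43 hc hv ha0 (by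
          rw [isSquare_mul_iff_of_finite hc hv] at hs
          rw [isSquare_mul_iff_of_finite hc ha0] at hca
          rw [isSquare_mul_iff_of_finite hv ha0]
          tauto)
        rcases ih with h | h
        · right
          have := mul_mem (Subgroup.Normal.conj_mem inferInstance _ h (refl Q v)) h1
          rwa [mul_assoc, inv_mul_cancel_left, mul_assoc, mul_assoc, refl_mul_self, mul_one] at this
        · left
          have := mul_mem (Subgroup.Normal.conj_mem inferInstance _ h (refl Q v)) h1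
          rwa [mul_assoc, inv_mul_cancel_left] at this
  rcases key with h | h
  · exact .inl ⟨h, fun h' => hna ((mul_mem_cancel_left h').1 h)⟩
  · exact .inr ⟨h, fun h' => hna ((mul_mem_cancel_left h).1 h')⟩

end CfsgLib.Orth.ReflClass
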